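import Cfsg.Agent.Lib.TC.Enc

namespace Cfsg.Agent.Lib.Schur.Fi23c.E5.CT0

open Cfsg.Agent.Lib.TC.Enc

set_option maxRecDepth 100000

/-- A part of the chunks of the certificate. -/
noncomputable def tree : Tr Nat :=
(Tr.leaf (nat_lit 0x26144c9b1c0b242915050edc08f5a605b42142250d240d6a28c051a08826312811c014011c009e02e00))

end Cfsg.Agent.Lib.Schur.Fi23c.E5.CT0
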