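import Cfsg.Agent.Lib.TC.Chain
import Cfsg.Agent.Lib.Schur.Fi23c.E5.CT0

namespace Cfsg.Agent.Lib.Schur.Fi23c.E5.Tab

open Cfsg.Agent.Lib.TC.Core Cfsg.Agent.Lib.TC.Enc Cfsg.Agent.Lib.TC.Pres Cfsg.Agent.Lib.TC.Perm Cfsg.Agent.Lib.TC.Main Cfsg.Agent.Lib.TC.Chain

set_option maxRecDepth 100000

/-- The chunks. -/
noncomputable def ctree : Tr Nat := Cfsg.Agent.Lib.Schur.Fi23c.E5.CT0.tree

/-- The relator rotations. -/
noncomputable def rotT : Tr (List Nat) := (Tr.node (Tr.node (Tr.node (Tr.node (Tr.leaf []) (Tr.leaf [2,3,2,3])) (Tr.node (Tr.leaf [3,0,3,0,3,0]) (Tr.leaf [2,2]))) (Tr.node (Tr.node (Tr.leaf [0,2,0,2]) (Tr.leaf [0,0])) (Tr.node (Tr.leaf [1,3,1,3]) (Tr.leaf [])))) (Tr.node (Tr.node (Tr.node (Tr.leaf [0,1,0,1,0,1]) (Tr.leaf [3,2,3,2])) (Tr.node (Tr.leaf [1,2,1,2,1,2]) (Tr.leaf [3,3]))) (Tr.node (Tr.node (Tr.leaf [2,0,2,0]) (Tr.leaf [1,1])) (Tr.node (Tr.leaf [3,1,3,1])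 (Tr.leaf [])))))

/-- The witnesses of the rotations. -/
noncomputable def witT : Tr (Nat × Nat × Bool) := (Tr.node (Tr.node (Tr.node (Tr.node (Tr.leaf (0,0,false)) (Tr.leaf (5,1,false))) (Tr.node (Tr.leaf (2,2,false)) (Tr.leaf (6,2,false)))) (Tr.node (Tr.node (Tr.leaf (1,1,false)) (Tr.leaf (6,0,false))) (Tr.node (Tr.leaf (4,1,false)) (Tr.leaf (0,0,false))))) (Tr.node (Tr.node (Tr.node (Tr.leaf (0,1,false)) (Tr.leaf (5,2,false))) (Tr.node (Tr.leaf (3,1,false)) (Tr.leaf (6,3,false)))) (Tr.node (Tr.node (Tr.leaf (1,2,false)) (Tr.leaf (6,1,false))) (Tr.node (Tr.leaf (4,2,false)) (Tr.leaf (0,0,false))))))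

/-- The subgroup rotations. -/
noncomputable def srotT : Tr (List Nat × Nat × List Nat) := (Tr.node (Tr.node (Tr.leaf ([],0,[])) (Tr.leaf ([],2,[]))) (Tr.node (Tr.leaf ([],1,[])) (Tr.leaf ([],0,[]))))

/-- The certificate. -/
noncomputable def cert : Cert :=
  mkCert 4 5 20 1 14 17 7 127 66 13 52 61 8191 511 5 3 31 7 8 6 3 ctree.get rotT.get srotT.get

/-- The letters. -/
def ls : List Nat := [3,4,5,8]

/-- The smaller letters. -/
def ls' : List Nat := [3,4,5]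

/-- The inverses. -/
def inv' (c : Nat) : Nat := [0,1,2,3].getD c 0

/-- The relators. -/
def rels' : List (List Nat) :=
  [[1,0,1,0,1,0],
   [2,0,2,0],
   [3,0,3,0,3,0],
   [2,1,2,1,2,1],
   [3,1,3,1],
   [3,2,3,2]]

/-- The words of the subgroup. -/
def subs' : List (List Nat) :=
  [[0],
   [1],
   [2]]

end Cfsg.Agent.Lib.Schur.Fi23c.E5.Tab
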